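import Cfsg.Agent.CosetEnum.ON.Janko.Data

/-! Generated: checks of the rows. -/

set_option autoImplicit false
set_option maxRecDepth 100000

namespace CfsgLib.CosetEnum.ON.Janko

open CfsgLib.CosetEnum

theorem rows0 : allFrom (checkRow epF (fun x => bif Nat.blt x 2 then x ^^^ 1 else x) 4828 3 nodeF TF tfF 2926) 0 256 = true := by
  decide +kernel

theorem rows256 : allFrom (checkRow epF (fun x => bif Nat.blt x 2 then x ^^^ 1 else x) 4828 3 nodeF TF tfF 2926) 256 256 = true := by
  decide +kernel

theorem rows512 : allFrom (checkRow epF (fun x => bif Nat.blt x 2 then x ^^^ 1 else x) 4828 3 nodeF TF tfF 2926) 512 256 = true := by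
  decide +kernel

theorem rows768 : allFrom (checkRow epF (fun x => bif Nat.blt x 2 then x ^^^ 1 else x) 4828 3 nodeF TF tfF 2926) 768 256 = true := by
  decide +kernel

theorem rows1024 : allFrom (checkRow epF (fun x => bif Nat.blt x 2 then x ^^^ 1 else x) 4828 3 nodeF TF tfF 2926) 1024 256 = true := by
  decide +kernel

theorem rows1280 : allFrom (checkRow epF (fun x => bif Nat.blt x 2 then x ^^^ 1 else x) 4828 3 nodeF TF tfF 2926) 1280 256 = true := by
  decide +kernel

theorem rows1536 : allFrom (checkRow epF (fun x => bif Nat.blt x 2 then x ^^^ 1 else x) 4828 3 nodeF TF tfF 2926) 1536 256 = true := by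
  decide +kernel

theorem rows1792 : allFrom (checkRow epF (fun x => bif Nat.blt x 2 then x ^^^ 1 else x) 4828 3 nodeF TF tfF 2926) 1792 256 = true := by
  decide +kernel

theorem rows2048 : allFrom (checkRow epF (fun x => bif Nat.blt x 2 then x ^^^ 1 else x) 4828 3 nodeF TF tfF 2926) 2048 256 = true := by
  decide +kernel

theorem rows2304 : allFrom (checkRow epF (fun x => bif Nat.blt x 2 then x ^^^ 1 else x) 4828 3 nodeF TF tfF 2926) 2304 256 = true := by
  decide +kernel

theorem rows2560 : allFrom (checkRow epF (fun x => bif Nat.blt x 2 then x ^^^ 1 else x) 4828 3 nodeF TF tfF 2926) 2560 256 = true := by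
  decide +kernel

theorem rows2816 : allFrom (checkRow epF (fun x => bif Nat.blt x 2 then x ^^^ 1 else x) 4828 3 nodeF TF tfF 2926) 2816 110 = true := by
  decide +kernel

end CfsgLib.CosetEnum.ON.Janko
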