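import Cfsg.Agent.CosetEnum.ON.Janko.Facts0
import Cfsg.Agent.CosetEnum.ON.Janko.Rows0

/-! Generated: the checked certificate. -/

set_option autoImplicit false
set_option maxRecDepth 100000

namespace CfsgLib.CosetEnum.ON.Janko

open CfsgLib.CosetEnum

theorem facts : FactsChecked cert.ep cert.iv cert.words cert.nr 4828 :=
  (factsUpTo4828 FactsChecked.zero)

theorem rows : ∀ i < cert.n, checkRow cert.ep cert.iv 4828 cert.L cert.node cert.T cert.tf cert.n i = true :=
  RangeChecked.all (RangeChecked.app 110 2926 (RangeChecked.app 256 2816 (RangeChecked.app 256 2560 (RangeChecked.app 256 2304 (RangeChecked.app 256 2048 (RangeChecked.app 256 1792 (RangeChecked.app 256 1536 (RangeChecked.app 256 1280 (RangeChecked.app 256 1024 (RangeChecked.app 256 768 (RangeChecked.app 256 512 (RangeChecked.app 256 256 RangeChecked.zero rows0 rfl) rows256 rfl) rows512 rfl) rows768 rfl) rows1024 rfl) rows1280 rfl) rows1536 rfl) rows1792 rfl) rows2048 rfl) rows2304 rfl) rows2560 rfl) rows2816 rfl)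

theorem node_zero : cert.node 0 = 0 := by decide +kernel

theorem n_pos : 0 < cert.n := by decide +kernel

end CfsgLib.CosetEnum.ON.Janko
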